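import Cfsg.Agent.H13.RankRows
import Cfsg.Agent.H808.GoodNum
import Cfsg.Agent.OrdDiv.Table
import Cfsg.Agent.SporadicB.RuMain

/-!
# Complemented subgroup lattices: Ru (helper13, S5900)

The group with the subgroup `2F4(2)'` of index 8120 is the one of `SporadicB.RuMain`; it is `Ru` by its order.
-/

set_option autoImplicit false

namespace Cfsg.Agent.H13.RankRu

open Subgroup MulAction Cfsg Cfsg.Agent.OrdDiv Cfsg.Agent.H939.KLat Cfsg.Agent.H13.RankCL

theorem not_comm {G : Type*} [Group G] [Finite G] (h : IsSimpleGroup G) (hp : ¬ (Nat.card G).Prime) :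
    ¬ ∀ a b : G, a * b = b * a := by
  intro hc
  let _ : CommGroup G := { (inferInstance : Group G) with mul_comm := hc }
  exact hp (IsSimpleGroup.prime_card (α := G))

theorem iso_of (hk : H808.GoodNum.Known.{0}) {G : Type} [Group G] [Finite G] (h1 : IsSimpleGroup G)
    (h2 : Nat.card G = 145926144000) : Spor.IsoRu G := by
  obtain ⟨g, hg, hr⟩ := exists_real_filter OrdDiv.table (hk G) (not_comm h1 (by rw [h2]; norm_num))
    (l := [(2, 14), (3, 3), (5, 3), (7, 1), (13, 1), (29, 1)]) (N := 145926144000) (by decide +kernel) (by rw [h2])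
    (fun n => n == 145926144000) (by rw [h2]; rfl)
  rw [show (cands [(2, 14), (3, 3), (5, 3), (7, 1), (13, 1), (29, 1)] 145926144000).filter
    (fun g => ordN g == 145926144000) = [.ru] from by decide +kernel] at hg
  simp only [List.mem_cons, List.not_mem_nil, or_false] at hg
  subst hg
  exact hr


theorem arith0 (R n k i m : ℕ) (hR : 0 < R) (h : n * (R * k) * i = R * m) : n * (k * i) = m := by
  apply Nat.eq_of_mul_eq_mul_left hR
  rw [← h]
  ring

/-- a permutation group with a simple subgroup `T` of orbits `0`, `[1, 1756)`, `[1756, 4060)`, of index 8120 -/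
theorem cl_perm {G T : Subgroup (Equiv.Perm ℕ)} [Finite G] [IsSimpleGroup G] (hTG : T ≤ G) (hT : IsSimpleGroup T)
    (hcG : Nat.card G = 145926144000) (hcT : Nat.card T = 17971200) (hfix : ∀ t ∈ T, t 0 = 0)
    (ho1 : orbit T 1 = Set.Ico 1 1756) (ho2 : orbit T 1756 = Set.Ico 1756 4060)
    (hoG : orbit G 0 = Set.Ico 0 4060) (hb : Below (Nat.card G)) : CL G := by
  have e' := Subgroup.subgroupOfEquivOfLe hTG
  have hsX : IsSimpleGroup ↥(T.subgroupOf G) := (MulEquiv.isSimpleGroup_congr e').2 hT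
  have hcX : Nat.card ↥(T.subgroupOf G) = 17971200 := by rw [Nat.card_congr e'.toEquiv, hcT]
  have hM : stabilizer G (0 : ℕ) ≠ ⊤ := by
    intro h
    have h1 : (1 : ℕ) ∈ orbit G (0 : ℕ) := by rw [hoG]; exact ⟨by norm_num, by norm_num⟩
    obtain ⟨g, hg⟩ := h1
    have h2 : g ∈ stabilizer G (0 : ℕ) := h ▸ mem_top g
    rw [mem_stabilizer_iff] at h2
    exact absurd (hg.symm.trans h2) (by norm_num)
  have hB : ∀ a b : ℕ, ∀ c : ℕ, a ∈ orbit T c → b ∈ orbit T c → ∃ x ∈ T.subgroupOf G, x • a = b := by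
    intro a b c ha hb
    obtain ⟨x, hx⟩ : b ∈ orbit T a := by rw [MulAction.orbit_eq_iff.2 ha]; exact hb
    exact ⟨⟨x, hTG x.2⟩, by rw [Subgroup.mem_subgroupOf]; exact x.2, hx⟩
  refine crit_unique (X := T.subgroupOf G) (M := stabilizer G (0 : ℕ)) (hb.apply (by rw [hcX, hcG]; norm_num)) hM
    fun Y hXY hY => ?_
  obtain ⟨S, hS⟩ := orbit_card (ι := Fin 2) hXY (0 : ℕ) ![Set.Ico 1 1756, Set.Ico 1756 4060] (by
      intro i; fin_cases i
      · intro a ha b hb
        exact hB a b 1 (by rw [ho1]; exact ha) (by rw [ho1]; exact hb)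
      · intro a ha b hb
        exact hB a b 1756 (by rw [ho2]; exact ha) (by rw [ho2]; exact hb))
    (by intro i; fin_cases i <;> simp)
    (by
      intro i j hij
      rw [Set.disjoint_left]
      fin_cases i <;> fin_cases j <;> first | exact absurd rfl hij | skip
      · intro a ha hb
        have h1 : a ∈ Set.Ico 1 1756 := ha
        have h2 : a ∈ Set.Ico 1756 4060 := hb
        exact absurd (h1.2.trans_le h2.1) (lt_irrefl _)
      · intro a ha hb
        have h1 : a ∈ Set.Ico 1 1756 := hb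
        have h2 : a ∈ Set.Ico 1756 4060 := ha
        exact absurd (h1.2.trans_le h2.1) (lt_irrefl _))
    (by
      intro g
      have h1 : g • (0 : ℕ) ∈ orbit G (0 : ℕ) := ⟨g, rfl⟩
      rw [hoG] at h1
      rcases Nat.eq_zero_or_pos (g • (0 : ℕ)) with h | h
      · exact Or.inl h
      · right
        rcases lt_or_ge (g • (0 : ℕ)) 1756 with h2 | h2
        · exact ⟨0, h, h2⟩
        · exact ⟨1, h2, h1.2⟩)
  have hn : (orbit Y (0 : ℕ)).ncard = 1 ∨ (orbit Y (0 : ℕ)).ncard = 1756 ∨ (orbit Y (0 : ℕ)).ncard = 2305 ∨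
      (orbit Y (0 : ℕ)).ncard = 4060 := by
    have h0 : (Set.Ico 1 1756 : Set ℕ).ncard = 1755 := by
      rw [← Finset.coe_Ico, Set.ncard_coe_finset, Nat.card_Ico]
    have h1 : (Set.Ico 1756 4060 : Set ℕ).ncard = 2304 := by
      rw [← Finset.coe_Ico, Set.ncard_coe_finset, Nat.card_Ico]
    rw [hS]
    clear hS
    revert S
    intro S
    fin_cases S <;> simp [h0, h1]
  have hXs : T.subgroupOf G ≤ stabilizer G (0 : ℕ) := by
    intro t ht
    rw [mem_stabilizer_iff]
    exact hfix _ (Subgroup.mem_subgroupOf.1 ht)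
  have h7 := card_orbit_mul Y (0 : ℕ)
  obtain ⟨k, hk⟩ := Subgroup.card_dvd_of_le (le_inf hXY hXs)
  have h8 := Y.card_mul_index
  rw [← h7, hk, hcX, hcG] at h8
  have h9 : (orbit Y (0 : ℕ)).ncard * (k * Y.index) = 8120 := by
    exact arith0 17971200 _ k Y.index 8120 (by norm_num) (h8.trans (by norm_num))
  have hdvd : (orbit Y (0 : ℕ)).ncard ∣ 8120 := ⟨_, h9.symm⟩
  rcases hn with h | h | h | h
  · intro y hy
    obtain ⟨x, hx⟩ := Set.ncard_eq_one.1 h
    have ho : (0 : ℕ) ∈ orbit Y (0 : ℕ) := mem_orbit_self _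
    have hyo : y • (0 : ℕ) ∈ orbit Y (0 : ℕ) := ⟨⟨y, hy⟩, rfl⟩
    rw [hx, Set.mem_singleton_iff] at ho hyo
    rw [mem_stabilizer_iff, hyo, ← ho]
  · exfalso; rw [h] at hdvd; exact absurd hdvd (by norm_num)
  · exfalso; rw [h] at hdvd; exact absurd hdvd (by norm_num)
  · exfalso
    rw [h] at h9
    apply hY
    apply eq_top_of_index_two (by rw [hcG]; norm_num)
    have h10 : k * Y.index = 2 := Nat.eq_of_mul_eq_mul_left (show 0 < 4060 by norm_num)
      (h9.trans (show 8120 = 4060 * 2 by norm_num))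
    exact Nat.le_of_dvd (by norm_num) ⟨k, by rw [← h10, mul_comm]⟩

theorem cl_Ru (hk : H808.GoodNum.Known.{0}) {G : Type*} [Group G] [Finite G] [IsSimpleGroup G] (h : Spor.IsoRu G)
    (hb : Below (Nat.card G)) : CL G := by
  have hfin : Finite SporadicB.RuMain.G :=
    Nat.finite_of_card_ne_zero (by rw [SporadicB.RuMain.card_G]; norm_num)
  obtain ⟨e⟩ := h
  obtain ⟨f⟩ := iso_of hk SporadicB.RuMain.isSimpleGroup_G SporadicB.RuMain.card_G
  have hT1 := SporadicB.RuMain.T_le_G1
  have hle : SporadicB.RuMain.T ≤ SporadicB.RuMain.G := hT1.trans fun x hx => hx.1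
  refine RankRows.congr (e.trans f.symm) hb fun {_ _} hb' => ?_
  refine cl_perm hle SporadicB.RuMain.isSimpleGroup_T SporadicB.RuMain.card_G SporadicB.RuMain.card_T
    (fun t ht => (hT1 ht).2) ?_ ?_ ?_ hb'
  · rw [SporadicB.RuMain.orbT, SporadicB.NetSimple.bitSet_mask]
  · rw [SporadicB.RuMain.orb1_of (H := SporadicB.RuMain.T) (by
      intro l hl
      simp only [List.mem_cons, List.not_mem_nil, or_false] at hl
      rcases hl with rfl | rfl | rfl | rfl
      exacts [SporadicB.RuMain.tu1, SporadicB.RuMain.tu2, SporadicB.RuMain.tx1, SporadicB.RuMain.tx2]) hT1,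
      SporadicB.NetSimple.bitSet_mask]
  · rw [SporadicB.RuMain.orbG, SporadicB.NetSimple.bitSet_mask]

end Cfsg.Agent.H13.RankRu
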