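import Cfsg.Agent.H13.RankRu
import Cfsg.Agent.S0000

/-!
# Complemented subgroup lattices: Ru, the classification plugged in (helper13, S5900)
-/

set_option autoImplicit false

namespace Cfsg.Agent.H13.RankRuF

open Cfsg Cfsg.Agent.H939.KLat

theorem cl_Ru {G : Type*} [Group G] [Finite G] [IsSimpleGroup G] (h : Spor.IsoRu G)
    (hb : Below (Nat.card G)) : CL G :=
  RankRu.cl_Ru (fun _ _ _ _ => Cfsg.Agent.S0000.result) h hb

end Cfsg.Agent.H13.RankRuF
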